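import Cfsg.Agent.Lib.Helper10.J3M.TCS
import Cfsg.Agent.Lib.Helper9.SchurVT2

/-!
General lemmas on words in central extensions.
-/

set_option autoImplicit false

namespace Cfsg.Agent.Lib.Helper10.TCS

open Cfsg Subgroup Cfsg.Agent.Lib.Helper9 Cfsg.Agent.Lib.Helper41
open scoped commutatorElement

theorem wv_congr {Γ : Type*} [Monoid Γ] {val val' : ℕ → Γ} {w : List ℕ} (h : ∀ c ∈ w, val c = val' c) :
    wv val w = wv val' w := by
  unfold wv
  rw [List.map_congr_left h]

/-- multiply the value of one letter by a fixed element. -/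
def tw {Γ : Type*} [Monoid Γ] (val : ℕ → Γ) (l : ℕ) (c : Γ) : ℕ → Γ := fun k => if k = l then val k * c else val k

theorem wv_tw {Γ : Type*} [Group Γ] (val : ℕ → Γ) (l : ℕ) (c : Γ) (hc : ∀ g, c * g = g * c) (w : List ℕ) :
    wv (tw val l c) w = wv val w * c ^ (w.count l) := by
  induction w with
  | nil => simp [wv]
  | cons k w ih =>
    rw [wv_cons, wv_cons, ih]
    by_cases hk : k = l
    · subst hk
      rw [List.count_cons_self, pow_succ]
      unfold tw
      rw [if_pos rfl]
      calc val k * c * (wv val w * c ^ List.count k w) = val k * (c * wv val w) * c ^ List.count k w := by group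
        _ = val k * (wv val w * c) * c ^ List.count k w := by rw [hc]
        _ = val k * wv val w * (c * c ^ List.count k w) := by group
        _ = val k * wv val w * (c ^ List.count k w * c) := by rw [hc]
    · rw [List.count_cons_of_ne hk]
      unfold tw
      rw [if_neg hk, mul_assoc]

theorem forall_getD (L : List (List ℕ)) (p : List ℕ → Prop) (h0 : p []) (h : ∀ w ∈ L, p w) :
    ∀ i, p (L.getD i []) := by
  intro i
  by_cases hi : i < L.length
  · rw [List.getD_eq_getElem _ _ hi]
    exact h _ (List.getElem_mem hi)
  · rw [List.getD_eq_default _ _ (by omega)]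
    exact h0

theorem chkE_of_chkI (E P : ℕ → ℕ) (rel : ℕ → List ℕ) (isSub : ℕ → Bool) (N C : ℕ)
    (h : ∀ i < N * C, chkI E P rel isSub N C i = true) :
    ∀ v < N, ∀ c < C, chkE E P rel isSub N C v c = true := by
  intro v hv c hc
  have hlt : v * C + c < N * C := by
    calc v * C + c < v * C + C := by omega
      _ = (v + 1) * C := by ring
      _ ≤ N * C := Nat.mul_le_mul_right C hv
  have h1 := h _ hlt
  unfold chkI at h1
  rw [Bool.or_eq_true] at h1
  rcases h1 with h1 | h1
  · rw [Nat.ble_eq] at h1
    have : N * C ≤ v * C + c := h1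
    omega
  · have e1 : Nat.div (v * C + c) C = v := by
      show (v * C + c) / C = v
      rw [mul_comm, Nat.mul_add_div (by omega), Nat.div_eq_of_lt hc, add_zero]
    have e2 : Nat.mod (v * C + c) C = c := by
      show (v * C + c) % C = c
      rw [mul_comm, Nat.mul_add_mod, Nat.mod_eq_of_lt hc]
    rwa [e1, e2] at h1

/-- the transfer: a power of an element of the kernel of a stem extension lies in the subgroup generated by lifts of
generators of a subgroup. -/
theorem pow_index_mem {Γ G : Type*} [Group Γ] [Group G] (σ : Γ →* G) (hσ : IsStemExtension σ) [Finite Γ]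
    (S : Set Γ) : ∀ z ∈ σ.ker, z ^ (closure (σ '' S)).index ∈ closure S := by
  intro z hz
  set D := closure S with hD
  set H := (closure (σ '' S)).comap σ with hH
  have hidx : H.index = (closure (σ '' S)).index := index_comap_of_surjective _ hσ.1
  obtain ⟨h1, h2⟩ := pow_index_mem_commutator H z (hσ.2.1 hz) (hσ.2.2 hz)
  have h3 : z ^ H.index ∈ ⁅H, H⁆ := by
    rw [← Subgroup.map_subtype_commutator]
    exact ⟨_, h2, rfl⟩
  have hcen : ∀ k ∈ σ.ker, ∀ g : Γ, k * g = g * k := fun k hk g =>
    (mem_center_iff.1 (hσ.2.1 hk) g).symm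
  have hS : ∀ x ∈ S, x ∈ D := fun x hx => subset_closure hx
  have h4 : ⁅H, H⁆ ≤ D := by
    rw [hH, comap_closure_image]
    apply commutator_closure_le
    · rintro x (hx | hx) d hd
      · exact ⟨D.mul_mem (D.mul_mem (hS x hx) hd) (D.inv_mem (hS x hx)),
          D.mul_mem (D.mul_mem (D.inv_mem (hS x hx)) hd) (hS x hx)⟩
      · have hx' : x ∈ σ.ker := hx
        have e1 : x * d * x⁻¹ = d := by rw [hcen x hx', mul_inv_cancel_right]
        have e2 : x⁻¹ * d * x = d := by rw [mul_assoc, ← hcen x hx', inv_mul_cancel_left]
        rw [e1, e2]; exact ⟨hd, hd⟩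
    · rintro x (hx | hx) y (hy | hy)
      · rw [commutatorElement_def]
        exact D.mul_mem (D.mul_mem (D.mul_mem (hS x hx) (hS y hy)) (D.inv_mem (hS x hx))) (D.inv_mem (hS y hy))
      · have hy' : y ∈ σ.ker := hy
        have : ⁅x, y⁆ = 1 := by
          rw [commutatorElement_eq_one_iff_mul_comm, hcen y hy']
        rw [this]; exact one_mem _
      · have hx' : x ∈ σ.ker := hx
        have : ⁅x, y⁆ = 1 := by
          rw [commutatorElement_eq_one_iff_mul_comm, hcen x hx']
        rw [this]; exact one_mem _
      · have hx' : x ∈ σ.ker := hx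
        have : ⁅x, y⁆ = 1 := by
          rw [commutatorElement_eq_one_iff_mul_comm, hcen x hx']
        rw [this]; exact one_mem _
  rw [← hidx]
  exact h4 h3

/-- a rotation of a word with central value has the same value. -/
theorem wv_rotate_central {Γ : Type*} [Group Γ] (val : ℕ → Γ) (w : List ℕ) (hc : ∀ g, wv val w * g = g * wv val w)
    (k : ℕ) : wv val (w.rotate k) = wv val w := by
  rw [List.rotate_eq_drop_append_take_mod, wv_append]
  set n := k % w.length
  have h : wv val w = wv val (w.take n) * wv val (w.drop n) := by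
    rw [← wv_append, List.take_append_drop]
  have h2 := hc (wv val (w.take n))
  rw [h] at h2 ⊢
  have h3 : wv val (List.take n w) * (wv val (List.drop n w) * wv val (List.take n w)) =
      wv val (List.take n w) * (wv val (List.take n w) * wv val (List.drop n w)) := by
    rw [← mul_assoc, h2]
  exact mul_left_cancel h3

end Cfsg.Agent.Lib.Helper10.TCS
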