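import Cfsg.Agent.Lib.Helper10.J3M.TCS
import Cfsg.Agent.Lib.Helper10.J3M.DataM
import Cfsg.Agent.Lib.Helper10.J3.QDefs
import Cfsg.Agent.Lib.Helper10.J3.Gens

/-!
Boolean checks for the Schur multiplier of the third Janko group.
-/

set_option autoImplicit false

namespace Cfsg.Agent.Lib.Helper10.J3

open Cfsg.Agent.Lib.Helper10.TCS

def rel2 (i : ℕ) : List ℕ := rels2.getD i []
def rel3 (i : ℕ) : List ℕ := rels3.getD i []
def sub2 (_ : ℕ) : Bool := false
def sub3 (c : ℕ) : Bool := Nat.beq c 2 || Nat.beq c 3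

/-! the normaliser of a Sylow 3-subgroup -/
def nG (k : ℕ) : ℕ := cond (Nat.beq k 0) nx nt
def nTb (j k : ℕ) : ℕ := Nat.land (Nat.shiftRight (dNt j) (Nat.mul 13 k)) 8191
def nPp (j : ℕ) : ℕ := Nat.land (dNp j) 8191
def nKk (j : ℕ) : ℕ := Nat.land (Nat.shiftRight (dNp j) 13) 1
def nDd (j : ℕ) : ℕ := Nat.shiftRight (dNp j) 14

def chkN1 (j : ℕ) : Bool :=
  Nat.ble nN j ||
  ((Nat.blt (nTb j 0) nN && eqMul (dN (nG 0)) (dN j) (dN (nTb j 0))) &&
  ((Nat.blt (nTb j 1) nN && eqMul (dN (nG 1)) (dN j) (dN (nTb j 1))) &&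
  ((Nat.beq j jidN || (Nat.blt (nPp j) nN && (Nat.beq (nTb (nPp j) (nKk j)) j && Nat.blt (nDd (nPp j)) (nDd j)))) &&
  (Nat.ble nN (Nat.succ j) || Nat.blt (dN j) (dN (Nat.succ j))))))

/-! words of matrix codes -/
def appW (code : ℕ → ℕ) : List ℕ → ℕ → ℕ
  | [], v => v
  | l :: t, v => appC (code l) (appW code t v)

/-- two words of codes have the same product. -/
def eqWW (code : ℕ → ℕ) (w w' : List ℕ) : Bool :=
  Nat.beq (appW code w 1) (appW code w' 1) && (Nat.beq (appW code w 2) (appW code w' 2) &&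
  (Nat.beq (appW code w 4) (appW code w' 4) && (Nat.beq (appW code w 8) (appW code w' 8) &&
  (Nat.beq (appW code w 16) (appW code w' 16) && (Nat.beq (appW code w 32) (appW code w' 32) &&
  (Nat.beq (appW code w 64) (appW code w' 64) && (Nat.beq (appW code w 128) (appW code w' 128) &&
  Nat.beq (appW code w 256) (appW code w' 256))))))))

/-- the letters for the centraliser of an involution: indices in the list `dC`. -/
def jL2 (l : ℕ) : ℕ :=
  cond (Nat.beq l 0) ja0 (cond (Nat.beq l 1) 3814 (cond (Nat.beq l 2) ja1 (cond (Nat.beq l 3) ja2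
    (cond (Nat.beq l 4) 391 (cond (Nat.beq l 5) jw1 (cond (Nat.beq l 6) cg0 (cond (Nat.beq l 7) cg1 jidC)))))))
def cd2 (l : ℕ) : ℕ := dC (jL2 l)

/-- the letters for the normaliser of a Sylow 3-subgroup: indices in the list `dN`. -/
def jL3 (l : ℕ) : ℕ :=
  cond (Nat.beq l 0) nx (cond (Nat.beq l 1) nxi (cond (Nat.beq l 2) nt (cond (Nat.beq l 3) nti
    (cond (Nat.beq l 4) nw jidN))))
def cd3 (l : ℕ) : ℕ := dN (jL3 l)

def allRel (code : ℕ → ℕ) : List (List ℕ) → Bool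
  | [] => true
  | w :: t => eqWW code w [] && allRel code t

/-- the relators of the normaliser of a Sylow 3-subgroup which hold exactly. -/
def base3 : List (List ℕ) := rels3.take 5
def r36 : List ℕ := [0, 0, 0, 0, 2, 1, 3, 0, 3, 0, 2]

def chkW2 : Bool :=
  allRel cd2 rels2 && (eqWW cd2 [1, 2, 3, 4, 2, 1] [5, 6] && eqWW cd2 [2, 0, 3, 2, 0, 4, 2] [7])

def chkW3 : Bool :=
  allRel cd3 base3 && (eqWW cd3 r36 [4] && (eqWW cd3 [0, 1] [] && (eqWW cd3 [2, 3] [] &&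
    (Nat.beq (dN nx) (gC 2 3) && (Nat.beq (dN nt) (gC 3 4) && (Nat.beq (dN nw) wC && Nat.beq (dN jidN) idC))))))

/-- an elementary abelian subgroup of order 8. -/
def chkE8 : Bool :=
  eqMul (dC jz) (dC 1) (dC 4) && (eqMul (dC jz) (dC 81) (dC 1878) && (eqMul (dC 1) (dC 81) (dC 86) &&
  (eqMul (dC jz) (dC 86) (dC 1877) && (eqMul (dC 1) (dC 1) (dC jidC) && (eqMul (dC 81) (dC 81) (dC jidC) &&
  (eqMul (dC 4) (dC 4) (dC jidC) && (eqMul (dC 1878) (dC 1878) (dC jidC) && (eqMul (dC 86) (dC 86) (dC jidC) &&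
  eqMul (dC 1877) (dC 1877) (dC jidC)))))))))

end Cfsg.Agent.Lib.Helper10.J3
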