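import Mathlib

/-!
A small static certificate for coset enumeration: every entry of a complete coset table is either an edge of a spanning
tree, a loop at the first coset given by a letter of the subgroup, or is deduced from a relator all of whose other
edges have a smaller time stamp.  A valid certificate bounds the order of the group generated by the letters.
-/

set_option autoImplicit false

namespace Cfsg.Agent.Lib.Helper10.TCS

/-- value of a word. -/
def wv {Γ : Type*} [Monoid Γ] (val : ℕ → Γ) (w : List ℕ) : Γ := (w.map val).prod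

theorem wv_nil {Γ : Type*} [Monoid Γ] (val : ℕ → Γ) : wv val [] = 1 := rfl
theorem wv_cons {Γ : Type*} [Monoid Γ] (val : ℕ → Γ) (c : ℕ) (w : List ℕ) :
    wv val (c :: w) = val c * wv val w := by simp [wv]
theorem wv_append {Γ : Type*} [Monoid Γ] (val : ℕ → Γ) (w w' : List ℕ) :
    wv val (w ++ w') = wv val w * wv val w' := by simp [wv]
theorem map_wv {Γ G : Type*} [Monoid Γ] [Monoid G] (σ : Γ →* G) (val : ℕ → Γ) (w : List ℕ) :
    σ (wv val w) = wv (fun c => σ (val c)) w := by
  unfold wv
  rw [map_list_prod, List.map_map]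
  rfl
theorem wv_rotate {Γ : Type*} [Group Γ] (val : ℕ → Γ) (w : List ℕ) (h : wv val w = 1) (k : ℕ) :
    wv val (w.rotate k) = 1 := by
  unfold wv at *
  rw [List.map_rotate]
  exact List.prod_rotate_eq_one_of_prod_eq_one h k

/-! the checker -/
section checker
variable (E P : ℕ → ℕ) (rel : ℕ → List ℕ) (isSub : ℕ → Bool) (N C : ℕ)

def eT (v c : ℕ) : ℕ := Nat.land (E (Nat.add (Nat.mul v C) c)) 8191
def eS (v c : ℕ) : ℕ := Nat.land (Nat.shiftRight (E (Nat.add (Nat.mul v C) c)) 13) 65535
def eK (v c : ℕ) : ℕ := Nat.land (Nat.shiftRight (E (Nat.add (Nat.mul v C) c)) 29) 3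
def eI (v c : ℕ) : ℕ := Nat.land (Nat.shiftRight (E (Nat.add (Nat.mul v C) c)) 31) 63
def eP (v c : ℕ) : ℕ := Nat.shiftRight (E (Nat.add (Nat.mul v C) c)) 37
def pPar (u : ℕ) : ℕ := Nat.land (P u) 8191
def pLet (u : ℕ) : ℕ := Nat.shiftRight (P u) 13

def walkOk (τ : ℕ) : List ℕ → ℕ → ℕ → Bool
  | [], u, v => Nat.beq u v
  | c :: w, u, v => Nat.blt c C && (Nat.blt (eS E C u c) τ && walkOk τ w (eT E C u c) v)

def chkRel (v c : ℕ) : List ℕ → Bool
  | [] => false
  | d :: w => Nat.beq d c && walkOk E C (eS E C v c) w (eT E C v c) v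

def chkE (v c : ℕ) : Bool :=
  Nat.blt (eT E C v c) N &&
    cond (Nat.beq (eK E C v c) 0)
      (Nat.blt v (eT E C v c) && (Nat.beq (pPar P (eT E C v c)) v && Nat.beq (pLet P (eT E C v c)) c))
      (cond (Nat.beq (eK E C v c) 1)
        (Nat.beq v 0 && (Nat.beq (eT E C v c) 0 && isSub c))
        (chkRel E C v c ((rel (eI E C v c)).rotate (eP E C v c))))

/-- the check of the entry of index `i`. -/
def chkI (i : ℕ) : Bool := Nat.ble (Nat.mul N C) i || chkE E P rel isSub N C (Nat.div i C) (Nat.mod i C)

end checker

section sound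
variable {Γ : Type*} [Group Γ] (val : ℕ → Γ) (K : Subgroup Γ)
variable (E P : ℕ → ℕ) (rel : ℕ → List ℕ) (isSub : ℕ → Bool) (N C : ℕ)

/-- the representatives of the cosets. -/
noncomputable def rep : ℕ → Γ
  | 0 => 1
  | n + 1 => if h : pPar P (n + 1) < n + 1 then rep (pPar P (n + 1)) * val (pLet P (n + 1)) else 1
decreasing_by exact h

theorem rep_zero : rep val P 0 = 1 := by rw [rep]

theorem rep_succ (u : ℕ) (h0 : 0 < u) (h : pPar P u < u) :
    rep val P u = rep val P (pPar P u) * val (pLet P u) := by
  obtain ⟨n, rfl⟩ : ∃ n, u = n + 1 := ⟨u - 1, by omega⟩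
  rw [rep, dif_pos h]

def Valid (v c : ℕ) : Prop := rep val P v * val c * (rep val P (eT E C v c))⁻¹ ∈ K

theorem walk_sound (τ : ℕ) (hτ : ∀ u < N, ∀ c < C, eS E C u c < τ → Valid val K E P C u c)
    (hT : ∀ u < N, ∀ c < C, eT E C u c < N) :
    ∀ (w : List ℕ) (u v : ℕ), u < N → walkOk E C τ w u v = true →
      rep val P u * wv val w * (rep val P v)⁻¹ ∈ K := by
  intro w
  induction w with
  | nil =>
    intro u v _ h
    have : u = v := Nat.eq_of_beq_eq_true h
    rw [this, wv_nil, mul_one, mul_inv_cancel]
    exact K.one_mem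
  | cons c w ih =>
    intro u v hu h
    unfold walkOk at h
    simp only [Bool.and_eq_true, Nat.blt_eq] at h
    obtain ⟨hc, hs, hw⟩ := h
    have h1 := hτ u hu c hc hs
    have h2 := ih _ v (hT u hu c hc) hw
    have h3 := K.mul_mem h1 h2
    have e : rep val P u * val c * (rep val P (eT E C u c))⁻¹ *
        (rep val P (eT E C u c) * wv val w * (rep val P v)⁻¹) =
        rep val P u * wv val (c :: w) * (rep val P v)⁻¹ := by
      rw [wv_cons]; group
    rwa [e] at h3

variable (hrel : ∀ i, wv val (rel i) = 1) (hsub : ∀ c, isSub c = true → val c ∈ K)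
  (hchk : ∀ v < N, ∀ c < C, chkE E P rel isSub N C v c = true)
include hrel hsub hchk

theorem tgt_lt : ∀ u < N, ∀ c < C, eT E C u c < N := by
  intro u hu c hc
  have h := hchk u hu c hc
  unfold chkE at h
  rw [Bool.and_eq_true, Nat.blt_eq] at h
  exact h.1

theorem all_valid : ∀ v < N, ∀ c < C, Valid val K E P C v c := by
  have hT := tgt_lt val K E P rel isSub N C hrel hsub hchk
  have key : ∀ τ v, v < N → ∀ c < C, eS E C v c = τ → Valid val K E P C v c := by
    intro τ
    induction τ using Nat.strong_induction_on with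
    | _ τ ih =>
      intro v hv c hc hs
      have h := hchk v hv c hc
      unfold chkE at h
      rw [Bool.and_eq_true] at h
      have h := h.2
      cases hk0 : Nat.beq (eK E C v c) 0
      · rw [hk0] at h
        simp only [cond_false] at h
        cases hk1 : Nat.beq (eK E C v c) 1
        · rw [hk1] at h
          simp only [cond_false] at h
          have hr := wv_rotate val _ (hrel (eI E C v c)) (eP E C v c)
          cases hw : (rel (eI E C v c)).rotate (eP E C v c) with
          | nil =>
            rw [hw] at h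
            exact absurd h (by simp [chkRel])
          | cons d w =>
            rw [hw] at h hr
            unfold chkRel at h
            rw [Bool.and_eq_true] at h
            have hd : d = c := Nat.eq_of_beq_eq_true h.1
            rw [hd, wv_cons] at hr
            have h2 := walk_sound val K E P N C (eS E C v c)
              (fun u hu c' hc' hlt => ih _ (hs ▸ hlt) u hu c' hc' rfl) hT w _ v (hT v hv c hc) h.2
            have h3 := K.inv_mem h2
            have hw' : wv val w = (val c)⁻¹ := eq_inv_of_mul_eq_one_right hr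
            unfold Valid
            have e : (rep val P (eT E C v c) * wv val w * (rep val P v)⁻¹)⁻¹ =
                rep val P v * val c * (rep val P (eT E C v c))⁻¹ := by
              rw [hw']; group
            rwa [e] at h3
        · rw [hk1] at h
          simp only [cond_true, Bool.and_eq_true] at h
          have e1 : v = 0 := Nat.eq_of_beq_eq_true h.1
          have e2 : eT E C v c = 0 := Nat.eq_of_beq_eq_true h.2.1
          unfold Valid
          rw [e2, e1, rep_zero, one_mul, inv_one, mul_one]
          exact hsub c h.2.2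
      · rw [hk0] at h
        simp only [cond_true, Bool.and_eq_true, Nat.blt_eq] at h
        have e1 : pPar P (eT E C v c) = v := Nat.eq_of_beq_eq_true h.2.1
        have e2 : pLet P (eT E C v c) = c := Nat.eq_of_beq_eq_true h.2.2
        unfold Valid
        rw [rep_succ val P (eT E C v c) (by omega) (by omega), e1, e2, mul_inv_cancel]
        exact K.one_mem
  intro v hv c hc
  exact key _ v hv c hc rfl

variable (inv : ℕ → ℕ) (hinv : ∀ c < C, inv c < C ∧ val (inv c) = (val c)⁻¹) (hN : 0 < N)
include hinv hN

theorem cover : ∀ g ∈ Subgroup.closure {x | ∃ c < C, x = val c}, ∃ v < N, g * (rep val P v)⁻¹ ∈ K := by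
  have hT := tgt_lt val K E P rel isSub N C hrel hsub hchk
  have hV := all_valid val K E P rel isSub N C hrel hsub hchk
  have step : ∀ g : Γ, (∃ v < N, g * (rep val P v)⁻¹ ∈ K) → ∀ c < C,
      ∃ v < N, g * val c * (rep val P v)⁻¹ ∈ K := by
    rintro g ⟨v, hv, hg⟩ c hc
    refine ⟨_, hT v hv c hc, ?_⟩
    have h3 := K.mul_mem hg (hV v hv c hc)
    have e : g * (rep val P v)⁻¹ * (rep val P v * val c * (rep val P (eT E C v c))⁻¹) =
        g * val c * (rep val P (eT E C v c))⁻¹ := by group
    rwa [e] at h3
  intro g hg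
  induction hg using Subgroup.closure_induction_right with
  | one => exact ⟨0, hN, by rw [rep_zero]; simp⟩
  | mul_right x y _ hy ih =>
    obtain ⟨c, hc, rfl⟩ := hy
    exact step x ih c hc
  | mul_inv_cancel x y _ hy ih =>
    obtain ⟨c, hc, rfl⟩ := hy
    rw [← (hinv c hc).2]
    exact step x ih _ (hinv c hc).1

theorem card_le [Finite K] :
    Nat.card (Subgroup.closure {x | ∃ c < C, x = val c}) ≤ N * Nat.card K := by
  have hc := cover val K E P rel isSub N C hrel hsub hchk inv hinv hN
  have hex : ∀ g : Subgroup.closure {x | ∃ c < C, x = val c}, ∃ q : Fin N × K,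
      (g : Γ) = (q.2 : Γ) * rep val P q.1 := by
    intro g
    obtain ⟨v, hv, hk⟩ := hc g g.2
    exact ⟨(⟨v, hv⟩, ⟨_, hk⟩), by simp⟩
  choose f hf using hex
  have hinj : Function.Injective f := by
    intro a b hab
    apply Subtype.ext
    rw [hf a, hf b, hab]
  have := Nat.card_le_card_of_injective f hinj
  rwa [Nat.card_prod, Nat.card_fin] at this

end sound

end Cfsg.Agent.Lib.Helper10.TCS
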