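import Cfsg.Agent.Lib.Helper10.J3M.MDefs

set_option autoImplicit false
set_option maxRecDepth 100000

namespace Cfsg.Agent.Lib.Helper10.J3

open Cfsg.Agent.Lib.Helper10.TCS

theorem vtc2 : allB 14 0 (chkI e2 p2 rel2 sub2 1920 5) = true := by decide +kernel
theorem vtc3 : allB 13 0 (chkI e3 p3 rel3 sub3 729 6) = true := by decide +kernel
theorem vw2 : chkW2 = true := by decide +kernel
theorem vw3 : chkW3 = true := by decide +kernel
theorem ve8 : chkE8 = true := by decide +kernel

end Cfsg.Agent.Lib.Helper10.J3
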