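import Cfsg.Agent.Lib.Helper10.J3M.Lift
import Cfsg.Agent.Lib.Helper10.J3M.VM

/-!
The prime three: the kernel of a stem extension, if it is a 3-group, has order at most three when the group has a
subgroup of index prime to three satisfying a presentation of `3^{2+1+2} : 8`.
-/

set_option autoImplicit false

namespace Cfsg.Agent.Lib.Helper10.J3

open Cfsg Subgroup Cfsg.Agent.Lib.Helper9 Cfsg.Agent.Lib.Helper10.TCS

/-- the values of the six letters. -/
def lv6 {α : Type*} [Group α] (x t c : α) (k : ℕ) : α :=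
  if k = 0 then x else if k = 1 then x⁻¹ else if k = 2 then t else if k = 3 then t⁻¹ else
    if k = 4 then c else if k = 5 then c⁻¹ else 1

theorem map_lv6 {α β : Type*} [Group α] [Group β] (σ : α →* β) (x t c : α) (k : ℕ) :
    σ (lv6 x t c k) = lv6 (σ x) (σ t) (σ c) k := by
  unfold lv6
  split_ifs <;> simp

theorem chk3 : ∀ v < 729, ∀ c < 6, chkE e3 p3 rel3 sub3 729 6 v c = true :=
  chkE_of_chkI _ _ _ _ _ _ (fun i hi => allB_spec 13 0 _ vtc3 i (by omega) (by norm_num; omega))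

def sw3 (c : ℕ) : ℕ := if c = 2 then 3 else if c = 3 then 2 else c

theorem anti_wv {Γ : Type*} [Group Γ] (val : ℕ → Γ) (i : Γ)
    (hsw : ∀ c < 4, i * (val c)⁻¹ * i⁻¹ = val (sw3 c)) :
    ∀ w : List ℕ, (∀ c ∈ w, c < 4) → i * (wv val w)⁻¹ * i⁻¹ = wv val ((w.map sw3).reverse) := by
  intro w
  induction w with
  | nil => intro _; simp [wv]
  | cons c w ih =>
    intro hw
    rw [List.map_cons, List.reverse_cons, wv_append, wv_cons, wv_cons, wv_nil, mul_one,
      ← ih (fun d hd => hw d (List.mem_cons_of_mem _ hd)), ← hsw c (hw c List.mem_cons_self)]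
    group

theorem pal_eq_one {Γ : Type*} [Group Γ] (val : ℕ → Γ) (i : Γ)
    (hsw : ∀ c < 4, i * (val c)⁻¹ * i⁻¹ = val (sw3 c)) (w : List ℕ) (hw : ∀ c ∈ w, c < 4) (k : ℕ)
    (hpal : (w.map sw3).reverse = w.rotate k) (hc : ∀ g, wv val w * g = g * wv val w)
    (h243 : wv val w ^ 243 = 1) : wv val w = 1 := by
  have h1 := anti_wv val i hsw w hw
  rw [hpal, wv_rotate_central val w hc k] at h1
  set a := wv val w with ha
  have h2 : i * a⁻¹ * i⁻¹ = a⁻¹ := by
    have := hc i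
    calc i * a⁻¹ * i⁻¹ = a⁻¹ * (a * i) * a⁻¹ * i⁻¹ := by group
      _ = a⁻¹ * (i * a) * a⁻¹ * i⁻¹ := by rw [this]
      _ = a⁻¹ := by group
  rw [h2] at h1
  have h3 : a ^ 2 = 1 := by
    rw [pow_two]
    nth_rewrite 1 [← h1]
    exact inv_mul_cancel a
  calc a = a ^ 243 * ((a ^ 2) ^ 121)⁻¹ := by group
    _ = 1 := by rw [h243, h3]; simp

theorem three_part {Γ G : Type*} [Group Γ] [Group G] [Finite Γ] (σ : Γ →* G) (hσ : IsStemExtension σ)
    (h3 : ∀ z, σ z = 1 → z ^ 243 = 1) (x t : G) (hb : ∀ w ∈ base3, wv (lv6 x t 1) w = 1)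
    (h6 : wv (lv6 x t 1) r36 = 1) (hcard : 1944 ≤ Nat.card (closure ({x, t} : Set G)))
    (hidx : Nat.Coprime (closure ({x, t} : Set G)).index 3) : Nat.card σ.ker ≤ 3 := by
  have hcen : ∀ c, σ c = 1 → ∀ g, c * g = g * c := fun c hc g =>
    (mem_center_iff.1 (hσ.2.1 (MonoidHom.mem_ker.2 hc)) g).symm
  obtain ⟨x0, hx0⟩ := hσ.1 x
  obtain ⟨t0, ht0⟩ := hσ.1 t
  have hgen : ∀ (V : ℕ → Γ), (∀ k, σ (V k) = lv6 x t 1 k) → ∀ w, wv (lv6 x t 1) w = 1 → σ (wv V w) = 1 := by
    intro V hV w hw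
    rw [map_wv, ← hw]
    congr 1
    funext k
    exact hV k
  have hr1 : ([2, 2, 2, 2, 2, 2, 2, 2] : List ℕ) ∈ base3 := by simp [base3, rels3]
  have hr2 : ([0, 0, 0, 0, 0, 0, 0, 0, 0] : List ℕ) ∈ base3 := by simp [base3, rels3]
  have hr3 : ([1, 2, 0, 2, 0, 0, 3, 0, 3, 1] : List ℕ) ∈ base3 := by simp [base3, rels3]
  have hr4 : ([1, 2, 1, 3, 1, 1, 3, 0, 2, 1] : List ℕ) ∈ base3 := by simp [base3, rels3]
  have hr5 : ([2, 2, 2, 2, 0, 3, 3, 3, 3, 0] : List ℕ) ∈ base3 := by simp [base3, rels3]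
  -- the element of order eight
  have hσV0 : ∀ k, σ (lv6 x0 t0 1 k) = lv6 x t 1 k := by
    intro k; rw [map_lv6, hx0, ht0, map_one]
  obtain ⟨a, ha⟩ : ∃ y, y = wv (lv6 x0 t0 1) [2, 2, 2, 2, 2, 2, 2, 2] := ⟨_, rfl⟩
  have hka : σ a = 1 := by rw [ha]; exact hgen _ hσV0 _ (hb _ hr1)
  have hka' : σ (a ^ 91) = 1 := by rw [map_pow, hka, one_pow]
  obtain ⟨t1, ht1⟩ : ∃ y, y = t0 * a ^ 91 := ⟨_, rfl⟩
  have hσt1 : σ t1 = t := by rw [ht1, map_mul, hka', mul_one, ht0]
  have n1 : ∀ y c : Γ, wv (lv6 y t1 c) [2, 2, 2, 2, 2, 2, 2, 2] = 1 := by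
    intro y c
    have e : wv (lv6 y t1 c) [2, 2, 2, 2, 2, 2, 2, 2] = wv (tw (lv6 x0 t0 1) 2 (a ^ 91)) [2, 2, 2, 2, 2, 2, 2, 2] := by
      apply wv_congr
      intro d hd
      have : d = 2 := by simpa using hd
      subst this
      simp [lv6, tw, ht1]
    rw [e, wv_tw _ _ _ (hcen _ hka'), ← ha]
    have c1 : List.count 2 [2, 2, 2, 2, 2, 2, 2, 2] = 8 := by decide
    rw [c1, ← pow_mul, ← pow_succ', show 91 * 8 + 1 = 243 * 3 by norm_num, pow_mul, h3 a hka, one_pow]
  -- the element of order nine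
  have hσV1 : ∀ k, σ (lv6 x0 t1 1 k) = lv6 x t 1 k := by
    intro k; rw [map_lv6, hx0, hσt1, map_one]
  obtain ⟨b, hbdef⟩ : ∃ y, y = wv (lv6 x0 t1 1) [2, 2, 2, 2, 0, 3, 3, 3, 3, 0] := ⟨_, rfl⟩
  have hkb : σ b = 1 := by rw [hbdef]; exact hgen _ hσV1 _ (hb _ hr5)
  have hkb' : σ (b ^ 121) = 1 := by rw [map_pow, hkb, one_pow]
  obtain ⟨x1, hx1⟩ : ∃ y, y = x0 * b ^ 121 := ⟨_, rfl⟩
  have hσx1 : σ x1 = x := by rw [hx1, map_mul, hkb', mul_one, hx0]
  have n5 : ∀ c : Γ, wv (lv6 x1 t1 c) [2, 2, 2, 2, 0, 3, 3, 3, 3, 0] = 1 := by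
    intro c
    have e : wv (lv6 x1 t1 c) [2, 2, 2, 2, 0, 3, 3, 3, 3, 0] =
        wv (tw (lv6 x0 t1 1) 0 (b ^ 121)) [2, 2, 2, 2, 0, 3, 3, 3, 3, 0] := by
      apply wv_congr
      intro d hd
      have key : ∀ d ∈ ([2, 2, 2, 2, 0, 3, 3, 3, 3, 0] : List ℕ), d = 2 ∨ d = 0 ∨ d = 3 := by decide
      rcases key d hd with rfl | rfl | rfl <;> simp [lv6, tw, hx1]
    rw [e, wv_tw _ _ _ (hcen _ hkb'), ← hbdef]
    have c1 : List.count 0 [2, 2, 2, 2, 0, 3, 3, 3, 3, 0] = 2 := by decide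
    rw [c1, ← pow_mul, ← pow_succ', show 121 * 2 + 1 = 243 by norm_num, h3 b hkb]
  -- the central letter
  have hσV2 : ∀ k, σ (lv6 x1 t1 1 k) = lv6 x t 1 k := by
    intro k; rw [map_lv6, hσx1, hσt1, map_one]
  obtain ⟨c, hc⟩ : ∃ y, y = wv (lv6 x1 t1 1) r36 := ⟨_, rfl⟩
  have hkc : σ c = 1 := by rw [hc]; exact hgen _ hσV2 _ h6
  obtain ⟨val, hval⟩ : ∃ y, y = lv6 x1 t1 c := ⟨_, rfl⟩
  have hσval : ∀ k, σ (val k) = lv6 x t 1 k := by
    intro k; rw [hval, map_lv6, hσx1, hσt1, hkc]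
  have v0 : val 0 = x1 := by simp [hval, lv6]
  have v1 : val 1 = x1⁻¹ := by simp [hval, lv6]
  have v2 : val 2 = t1 := by simp [hval, lv6]
  have v3 : val 3 = t1⁻¹ := by simp [hval, lv6]
  have v4 : val 4 = c := by simp [hval, lv6]
  have v5 : val 5 = c⁻¹ := by simp [hval, lv6]
  have ht8 : t1 ^ 8 = 1 := by
    have := n1 x1 c
    rw [← this]
    simp only [wv, List.map_cons, List.map_nil, List.prod_cons, List.prod_nil, ← hval, v2]
    simp only [pow_succ, pow_zero, one_mul, mul_one, mul_assoc]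
  have hinvx : t1 ^ 4 * x1 * (t1 ^ 4)⁻¹ = x1⁻¹ := by
    have := n5 c
    simp only [wv, List.map_cons, List.map_nil, List.prod_cons, List.prod_nil, ← hval, v0, v2, v3] at this
    rw [eq_inv_iff_mul_eq_one, ← this]
    simp only [pow_succ, pow_zero, one_mul, mul_one, mul_inv_rev, mul_assoc]
  have hsw : ∀ d < 4, t1 ^ 4 * (val d)⁻¹ * (t1 ^ 4)⁻¹ = val (sw3 d) := by
    intro d hd
    interval_cases d
    · show _ = val 0
      rw [v0]
      calc t1 ^ 4 * x1⁻¹ * (t1 ^ 4)⁻¹ = (t1 ^ 4 * x1 * (t1 ^ 4)⁻¹)⁻¹ := by group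
        _ = x1 := by rw [hinvx, inv_inv]
    · show _ = val 1
      rw [v1, inv_inv, hinvx]
    · show _ = val 3
      rw [v2, v3]
      group
    · show _ = val 2
      rw [v2, v3]
      group
  have hpal : ∀ w ∈ base3, (∀ d ∈ w, d < 4) → ∀ k, (w.map sw3).reverse = w.rotate k → wv val w = 1 := by
    intro w hw hlt k hk
    have hker : σ (wv val w) = 1 := hgen val hσval w (hb w hw)
    exact pal_eq_one val (t1 ^ 4) hsw w hlt k hk (hcen _ hker) (h3 _ hker)
  have hrelΓ : ∀ w ∈ rels3, wv val w = 1 := by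
    intro w hw
    simp only [rels3, List.mem_cons, List.not_mem_nil, or_false] at hw
    rcases hw with rfl | rfl | rfl | rfl | rfl | rfl | rfl | rfl | rfl | rfl | rfl | rfl | rfl | rfl
    · rw [hval]; exact n1 x1 c
    · exact hpal _ hr2 (by decide) 0 (by decide)
    · exact hpal _ hr3 (by decide) 0 (by decide)
    · exact hpal _ hr4 (by decide) 5 (by decide)
    · rw [hval]; exact n5 c
    · show wv val (r36 ++ [5]) = 1
      rw [wv_append]
      have e : wv val r36 = c := by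
        rw [hc]
        apply wv_congr
        intro d hd
        have key : ∀ d ∈ r36, d = 0 ∨ d = 2 ∨ d = 1 ∨ d = 3 := by decide
        rcases key d hd with rfl | rfl | rfl | rfl <;> simp [hval, lv6]
      rw [e, wv_cons, wv_nil, v5]
      group
    · simp only [wv, List.map_cons, List.map_nil, List.prod_cons, List.prod_nil, v0, v1, v4, v5, mul_one]
      rw [← mul_assoc, hcen c hkc x1]
      group
    · simp only [wv, List.map_cons, List.map_nil, List.prod_cons, List.prod_nil, v2, v3, v4, v5, mul_one]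
      rw [← mul_assoc, hcen c hkc t1]
      group
    · simp [wv, v0, v1]
    · simp [wv, v0, v1]
    · simp [wv, v2, v3]
    · simp [wv, v2, v3]
    · simp [wv, v4, v5]
    · simp [wv, v4, v5]
  have hbd := card_le val (zpowers t1) e3 p3 rel3 sub3 729 6
    (forall_getD rels3 (fun w => wv val w = 1) rfl hrelΓ)
    (by
      intro d hd
      unfold sub3 at hd
      rw [Bool.or_eq_true] at hd
      rcases hd with hd | hd
      · rw [Nat.eq_of_beq_eq_true hd, v2]
        exact mem_zpowers t1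
      · rw [Nat.eq_of_beq_eq_true hd, v3]
        exact inv_mem (mem_zpowers t1)) chk3
    (fun d => if d = 0 then 1 else if d = 1 then 0 else if d = 2 then 3 else if d = 3 then 2 else
      if d = 4 then 5 else 4) (by
      intro d hd
      interval_cases d
      · exact ⟨by norm_num, by simp [v0, v1]⟩
      · exact ⟨by norm_num, by simp [v0, v1]⟩
      · exact ⟨by norm_num, by simp [v2, v3]⟩
      · exact ⟨by norm_num, by simp [v2, v3]⟩
      · exact ⟨by norm_num, by simp [v4, v5]⟩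
      · exact ⟨by norm_num, by simp [v4, v5]⟩) (by norm_num)
  have hK : Nat.card (zpowers t1) ≤ 8 := by
    rw [Nat.card_zpowers]
    exact orderOf_le_of_pow_eq_one (by norm_num) ht8
  set S : Set Γ := {y | ∃ d < 6, y = val d} with hS
  have hM : Nat.card (closure S) ≤ 5832 := by
    calc Nat.card (closure S) ≤ 729 * Nat.card (zpowers t1) := hbd
      _ ≤ 729 * 8 := Nat.mul_le_mul_left _ hK
      _ = 5832 := by norm_num
  have hcl : closure (σ '' S) = closure ({x, t} : Set G) := by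
    apply le_antisymm
    · rw [closure_le]
      rintro _ ⟨_, ⟨d, hd, rfl⟩, rfl⟩
      rw [hσval]
      have hx : x ∈ closure ({x, t} : Set G) := Subgroup.subset_closure (by simp)
      have ht : t ∈ closure ({x, t} : Set G) := Subgroup.subset_closure (by simp)
      interval_cases d
      · simpa [lv6] using hx
      · simpa [lv6] using hx
      · simpa [lv6] using ht
      · simpa [lv6] using ht
      · simp [lv6]
      · simp [lv6]
    · rw [closure_le]
      rintro y (rfl | rfl)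
      · exact Subgroup.subset_closure ⟨val 0, ⟨0, by norm_num, rfl⟩, by rw [v0, hσx1]⟩
      · exact Subgroup.subset_closure ⟨val 2, ⟨2, by norm_num, rfl⟩, by rw [v2, hσt1]⟩
  have hkerM : ∀ z, σ z = 1 → z ∈ closure S := by
    intro z hz
    have h1 := pow_index_mem σ hσ S z (MonoidHom.mem_ker.2 hz)
    rw [hcl] at h1
    have hcop : Nat.Coprime (closure ({x, t} : Set G)).index 243 := by
      have : (243 : ℕ) = 3 ^ 5 := by norm_num
      rw [this]
      exact Nat.Coprime.pow_right 5 hidx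
    obtain ⟨m, -, hm⟩ := Nat.exists_mul_mod_eq_one_of_coprime hcop (by norm_num)
    have h2 := (closure S).pow_mem h1 m
    rw [← pow_mul, pow_eq_pow_mod _ (h3 z hz), hm, pow_one] at h2
    exact h2
  let φ : closure S →* G := σ.comp (closure S).subtype
  have h1 := Subgroup.card_mul_index φ.ker
  rw [Subgroup.index_ker] at h1
  have h2 : Nat.card σ.ker ≤ Nat.card φ.ker :=
    Nat.card_le_card_of_injective
      (fun z : σ.ker => (⟨⟨z.1, hkerM z.1 (MonoidHom.mem_ker.1 z.2)⟩, MonoidHom.mem_ker.2 (MonoidHom.mem_ker.1 z.2)⟩ : φ.ker))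
      (by
        intro z z' h
        apply Subtype.ext
        exact congrArg (fun q : φ.ker => ((q : closure S) : Γ)) h)
  have h4 : closure ({x, t} : Set G) ≤ φ.range := by
    rw [closure_le]
    rintro y (rfl | rfl)
    · exact ⟨⟨val 0, Subgroup.subset_closure ⟨0, by norm_num, rfl⟩⟩, by show σ (val 0) = _; rw [v0, hσx1]⟩
    · exact ⟨⟨val 2, Subgroup.subset_closure ⟨2, by norm_num, rfl⟩⟩, by show σ (val 2) = _; rw [v2, hσt1]⟩
  have : Finite φ.range := Finite.of_surjective φ.rangeRestrict φ.rangeRestrict_surjective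
  have h5 : 1944 ≤ Nat.card φ.range := hcard.trans (Subgroup.card_le_of_le h4)
  have h7 : Nat.card σ.ker * 1944 ≤ 5832 := by
    calc Nat.card σ.ker * 1944 ≤ Nat.card φ.ker * Nat.card φ.range := Nat.mul_le_mul h2 h5
      _ = Nat.card (closure S) := h1
      _ ≤ 5832 := hM
  omega

end Cfsg.Agent.Lib.Helper10.J3
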