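import Cfsg.Agent.Lib.Helper10.J3M.Lift
import Cfsg.Agent.Lib.Helper10.J3M.VM

/-!
The prime two: a stem extension with kernel of exponent two of a group in which all involutions lift to involutions
and which has a subgroup of odd index satisfying a presentation of `2^{1+4}_- : A_5` is trivial.
-/

set_option autoImplicit false

namespace Cfsg.Agent.Lib.Helper10.J3

open Cfsg Subgroup Cfsg.Agent.Lib.Helper9 Cfsg.Agent.Lib.Helper10.TCS

/-- the values of the five letters. -/
def lv5 {α : Type*} [Group α] (a b c d : α) (k : ℕ) : α :=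
  if k = 0 then a else if k = 1 then a⁻¹ else if k = 2 then b else if k = 3 then c else if k = 4 then d else 1

theorem map_lv5 {α β : Type*} [Group α] [Group β] (σ : α →* β) (a b c d : α) (k : ℕ) :
    σ (lv5 a b c d k) = lv5 (σ a) (σ b) (σ c) (σ d) k := by
  unfold lv5
  split_ifs <;> simp

theorem chk2 : ∀ v < 1920, ∀ c < 5, chkE e2 p2 rel2 sub2 1920 5 v c = true :=
  chkE_of_chkI _ _ _ _ _ _ (fun i hi => allB_spec 14 0 _ vtc2 i (by omega) (by norm_num; omega))

theorem two_part {Γ G : Type*} [Group Γ] [Group G] [Finite Γ] (σ : Γ →* G) (hσ : IsStemExtension σ)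
    (h2 : ∀ z, σ z = 1 → z * z = 1) (hLS : ∀ t : G, t * t = 1 → LS t)
    (g0 g1 g2 x : G) (hrel : ∀ w ∈ rels2, wv (lv5 g0 g1 g2 x) w = 1)
    (hcard : 1920 ≤ Nat.card (closure {y | ∃ c < 5, y = lv5 g0 g1 g2 x c}))
    (m : ℕ) (hm : Odd m) (hG : Nat.card G = 1920 * m) : ∀ z, σ z = 1 → z = 1 := by
  have hE : Exp2 σ := ⟨hσ.1, hσ.2.1, h2⟩
  have hcen : ∀ c, σ c = 1 → ∀ g, c * g = g * c := fun c hc g => hE.comm hc g
  have hp2 : ∀ c, σ c = 1 → c ^ 2 = 1 := fun c hc => by rw [pow_two]; exact h2 c hc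
  have hcube : ∀ y : Γ, y * (y * y) = y ^ 3 := fun y => by rw [pow_succ, pow_two, mul_assoc]
  obtain ⟨a0, ha0⟩ := hσ.1 g0
  obtain ⟨b0, hb0⟩ := hσ.1 g1
  obtain ⟨c0, hc0⟩ := hσ.1 g2
  obtain ⟨d0, hd0⟩ := hσ.1 x
  have hg03 : g0 ^ 3 = 1 := by
    have := hrel [0, 0, 0] (by simp [rels2])
    simpa [wv, lv5, pow_succ, mul_assoc] using this
  -- the first letter
  have hk0 : σ (a0 ^ 3) = 1 := by rw [map_pow, ha0, hg03]
  set a := a0 * a0 ^ 3 with ha
  have hσa : σ a = g0 := by rw [ha, map_mul, hk0, mul_one, ha0]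
  have ha3 : a ^ 3 = 1 := by
    rw [ha, (Commute.pow_right (Commute.refl a0) 3).mul_pow]
    have := hp2 _ hk0
    calc a0 ^ 3 * (a0 ^ 3) ^ 3 = ((a0 ^ 3) ^ 2) ^ 2 := by group
      _ = 1 := by rw [this, one_pow]
  have hgen : ∀ (V : ℕ → Γ), (∀ k, σ (V k) = lv5 g0 g1 g2 x k) → ∀ w ∈ rels2, σ (wv V w) = 1 := by
    intro V hV w hw
    rw [map_wv, ← hrel w hw]
    congr 1
    funext k
    exact hV k
  -- second letter
  set V0 := lv5 a b0 c0 d0 with hV0
  have hσV0 : ∀ k, σ (V0 k) = lv5 g0 g1 g2 x k := by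
    intro k
    rw [hV0, map_lv5, hσa, hb0, hc0, hd0]
  set e1 := wv V0 [0, 2, 0, 2, 0, 2] with he1
  have hk1 : σ e1 = 1 := hgen V0 hσV0 _ (by simp [rels2])
  set V1 := tw V0 2 e1 with hV1
  have hσtw : ∀ (V : ℕ → Γ) (l : ℕ) (e : Γ), σ e = 1 → (∀ k, σ (V k) = lv5 g0 g1 g2 x k) →
      ∀ k, σ (tw V l e k) = lv5 g0 g1 g2 x k := by
    intro V l e he hV k
    unfold tw
    split_ifs
    · rw [map_mul, he, mul_one, hV]
    · exact hV k
  have hσV1 := hσtw V0 2 e1 hk1 hσV0
  set e2' := wv V1 [2, 3, 2, 3, 2, 3] with he2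
  have hk2 : σ e2' = 1 := hgen V1 hσV1 _ (by simp [rels2])
  set V2 := tw V1 3 e2' with hV2
  have hσV2 := hσtw V1 3 e2' hk2 hσV1
  set e3' := wv V2 [0, 2, 1, 4, 2, 0, 3, 4, 3, 4, 2, 4, 1, 2, 4] with he3
  have hk3 : σ e3' = 1 := hgen V2 hσV2 _ (by simp [rels2])
  set val := tw V2 4 e3' with hval
  have hσval := hσtw V2 4 e3' hk3 hσV2
  have hpw : ∀ c, σ c = 1 → ∀ n, c * c ^ (2 * n + 1) = 1 := by
    intro c hc n
    rw [← pow_succ', show 2 * n + 1 + 1 = 2 * (n + 1) by ring, pow_mul, hp2 c hc, one_pow]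
  -- the normalised relators
  have n1 : wv val [0, 2, 0, 2, 0, 2] = 1 := by
    rw [hval, wv_tw _ _ _ (hcen _ hk3), hV2, wv_tw _ _ _ (hcen _ hk2), hV1, wv_tw _ _ _ (hcen _ hk1), ← he1]
    have c1 : List.count 4 [0, 2, 0, 2, 0, 2] = 0 := by decide
    have c2 : List.count 3 [0, 2, 0, 2, 0, 2] = 0 := by decide
    have c3 : List.count 2 [0, 2, 0, 2, 0, 2] = 2 * 1 + 1 := by decide
    rw [c1, c2, c3, pow_zero, pow_zero, mul_one, mul_one]
    exact hpw e1 hk1 1
  have n2 : wv val [2, 3, 2, 3, 2, 3] = 1 := by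
    rw [hval, wv_tw _ _ _ (hcen _ hk3), hV2, wv_tw _ _ _ (hcen _ hk2), ← he2]
    have c1 : List.count 4 [2, 3, 2, 3, 2, 3] = 0 := by decide
    have c2 : List.count 3 [2, 3, 2, 3, 2, 3] = 2 * 1 + 1 := by decide
    rw [c1, c2, pow_zero, mul_one]
    exact hpw e2' hk2 1
  have n3 : wv val [0, 2, 1, 4, 2, 0, 3, 4, 3, 4, 2, 4, 1, 2, 4] = 1 := by
    rw [hval, wv_tw _ _ _ (hcen _ hk3), ← he3]
    have c1 : List.count 4 [0, 2, 1, 4, 2, 0, 3, 4, 3, 4, 2, 4, 1, 2, 4] = 2 * 2 + 1 := by decide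
    rw [c1]
    exact hpw e3' hk3 2
  have v0 : val 0 = a := by simp [hval, hV2, hV1, hV0, tw, lv5]
  have v1 : val 1 = a⁻¹ := by simp [hval, hV2, hV1, hV0, tw, lv5]
  have hsq : ∀ u : List ℕ, (u ++ u) ∈ rels2 → wv val (u ++ u) = 1 := by
    intro u hu
    rw [wv_append]
    have h1 : σ (wv val u) * σ (wv val u) = 1 := by
      rw [← map_mul, ← wv_append]
      exact hgen val hσval _ hu
    exact hE.sound (hLS _ h1) _ rfl
  have s2 : wv val [2, 2] = 1 := hsq [2] (by simp [rels2])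
  have s3 : wv val [3, 3] = 1 := hsq [3] (by simp [rels2])
  have s4 : wv val [4, 4] = 1 := hsq [4] (by simp [rels2])
  have hrelΓ : ∀ w ∈ rels2, wv val w = 1 := by
    intro w hw
    have hw' := hw
    simp only [rels2, List.mem_cons, List.not_mem_nil, or_false] at hw'
    rcases hw' with rfl | rfl | rfl | rfl | rfl | rfl | rfl | rfl | rfl | rfl | rfl | rfl | rfl | rfl | rfl | rfl
    · simp only [wv, List.map_cons, List.map_nil, List.prod_cons, List.prod_nil, v0, mul_one]
      exact (hcube a).trans ha3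
    · exact s2
    · exact s3
    · exact n1
    · exact n2
    · exact hsq [0, 3] hw
    · exact s4
    · -- the commutator with an element of order three
      have hk : σ (wv val [4, 0, 4, 1]) = 1 := hgen val hσval _ hw
      set c := wv val [4, 0, 4, 1] with hc
      have hx2 : val 4 * val 4 = 1 := by
        simpa [wv] using s4
      have hxi : (val 4)⁻¹ = val 4 := inv_eq_of_mul_eq_one_left hx2
      have h1 : val 4 * a * (val 4)⁻¹ = c * a := by
        rw [hc, hxi]
        simp only [wv, List.map_cons, List.map_nil, List.prod_cons, List.prod_nil, v0, v1, mul_one]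
        group
      have h3 : (val 4 * a * (val 4)⁻¹) ^ 3 = 1 := by rw [conj_pow, ha3]; group
      rw [h1, (show Commute c a from hcen c hk a).mul_pow, ha3, mul_one] at h3
      have := hp2 c hk
      calc c = c ^ 3 * (c ^ 2)⁻¹ := by group
        _ = 1 := by rw [h3, this]; simp
    · exact hsq [3, 2, 4, 2] hw
    · exact hsq [4, 2, 4, 2, 4, 3] hw
    · exact n3
    · simp [wv, v0, v1]
    · simp [wv, v0, v1]
    · exact s2
    · exact s3
    · exact s4
  have hb := card_le val ⊥ e2 p2 rel2 sub2 1920 5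
    (forall_getD rels2 (fun w => wv val w = 1) rfl hrelΓ)
    (fun c hc => by simp [sub2] at hc) chk2
    (fun c => if c = 0 then 1 else if c = 1 then 0 else c) (by
      intro c hc
      interval_cases c
      · exact ⟨by norm_num, by simp [v0, v1]⟩
      · exact ⟨by norm_num, by simp [v0, v1]⟩
      · refine ⟨by norm_num, ?_⟩
        have : val 2 * val 2 = 1 := by simpa [wv] using s2
        simpa using (inv_eq_of_mul_eq_one_left this).symm
      · refine ⟨by norm_num, ?_⟩
        have : val 3 * val 3 = 1 := by simpa [wv] using s3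
        simpa using (inv_eq_of_mul_eq_one_left this).symm
      · refine ⟨by norm_num, ?_⟩
        have : val 4 * val 4 = 1 := by simpa [wv] using s4
        simpa using (inv_eq_of_mul_eq_one_left this).symm) (by norm_num)
  rw [Subgroup.card_bot, mul_one] at hb
  set S : Set Γ := {y | ∃ c < 5, y = val c} with hS
  have himg : σ '' S = {y | ∃ c < 5, y = lv5 g0 g1 g2 x c} := by
    ext y
    constructor
    · rintro ⟨_, ⟨c, hc, rfl⟩, rfl⟩
      exact ⟨c, hc, hσval c⟩
    · rintro ⟨c, hc, rfl⟩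
      exact ⟨val c, ⟨c, hc, rfl⟩, hσval c⟩
  have hmap : (closure S).map σ = closure {y | ∃ c < 5, y = lv5 g0 g1 g2 x c} := by
    rw [MonoidHom.map_closure, himg]
  obtain ⟨-, hinj⟩ := inj_of_card_le σ (closure S) (closure {y | ∃ c < 5, y = lv5 g0 g1 g2 x c})
    (by rw [hmap]) (by omega)
  have hP : Nat.card (closure {y | ∃ c < 5, y = lv5 g0 g1 g2 x c}) = 1920 := by
    apply le_antisymm _ hcard
    rw [← hmap]
    exact (Nat.card_le_card_of_surjective (fun k : closure S => (⟨σ k, k, k.2, rfl⟩ : (closure S).map σ))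
      (by rintro ⟨_, k, hk, rfl⟩; exact ⟨⟨k, hk⟩, rfl⟩)).trans hb
  have hidx : (closure (σ '' S)).index = m := by
    have := Subgroup.card_mul_index (closure (σ '' S))
    rw [himg, hP, hG] at this
    rw [himg]
    exact Nat.eq_of_mul_eq_mul_left (by norm_num) this
  have hfin := pow_index_eq_one σ hσ S (closure S) (by
    intro y hy d hd
    have hy' := Subgroup.subset_closure hy
    exact ⟨mul_mem (mul_mem hy' hd) (inv_mem hy'), mul_mem (mul_mem (inv_mem hy') hd) hy'⟩) (by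
    intro y hy y' hy'
    have h1 := Subgroup.subset_closure hy
    have h2 := Subgroup.subset_closure hy'
    rw [commutatorElement_def]
    exact mul_mem (mul_mem (mul_mem h1 h2) (inv_mem h1)) (inv_mem h2)) hinj
  intro z hz
  have h5 := hfin z hz
  rw [hidx] at h5
  exact eq_one_of_odd_pow (h2 z hz) hm h5

end Cfsg.Agent.Lib.Helper10.J3
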